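import Cfsg.Agent.Lib.ToddCox.U62O.PrimD
set_option autoImplicit false
set_option maxRecDepth 100000
namespace Cfsg.Agent.Lib.ToddCox.U62O
theorem prc0_0 : allBits (fun k => bif Nat.blt k 1408 then and (chkOrbPos Cfsg.Agent.Lib.ToddCox.U62T.tab PL0 0 0 1408 1408 (fun q => prR (Nat.add 0 q)) k) (Nat.beq (orbPt (prR (Nat.add 0 k))) k) else true) 11 (0 * 2 ^ 11) = true := by decide +kernel
theorem prL0 : ∀ w ∈ PL0, (∀ a ∈ w, a < 8) ∧ (w = [nat_lit 7] ∨ ∃ s ∈ Cfsg.Agent.Lib.ToddCox.U62T.Sl, relW Cfsg.Agent.Lib.ToddCox.U62T.sg s = w) := by decide +kernel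
theorem prW0 : tabW Cfsg.Agent.Lib.ToddCox.U62T.tab [nat_lit 7] 0 = 1 := by decide +kernel
theorem prc1_0 : allBits (fun k => bif Nat.blt k 1408 then and (chkOrbPos Cfsg.Agent.Lib.ToddCox.U62T.tab PL1 0 0 1408 1408 (fun q => prR (Nat.add 1408 q)) k) (Nat.beq (orbPt (prR (Nat.add 1408 k))) k) else true) 11 (0 * 2 ^ 11) = true := by decide +kernel
theorem prL1 : ∀ w ∈ PL1, (∀ a ∈ w, a < 8) ∧ (w = [nat_lit 7, nat_lit 5, nat_lit 2, nat_lit 0, nat_lit 1, nat_lit 3, nat_lit 4, nat_lit 5, nat_lit 7] ∨ ∃ s ∈ Cfsg.Agent.Lib.ToddCox.U62T.Sl, relW Cfsg.Agent.Lib.ToddCox.U62T.sg s = w) := by decide +kernel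
theorem prW1 : tabW Cfsg.Agent.Lib.ToddCox.U62T.tab [nat_lit 7, nat_lit 5, nat_lit 2, nat_lit 0, nat_lit 1, nat_lit 3, nat_lit 4, nat_lit 5, nat_lit 7] 0 = 568 := by decide +kernel
end Cfsg.Agent.Lib.ToddCox.U62O
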