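import Cfsg.Agent.Lib.ToddCox.U62O.OrbD
set_option autoImplicit false
set_option maxRecDepth 100000
namespace Cfsg.Agent.Lib.ToddCox.U62O
open Cfsg.Agent.Lib.ToddCox.U62T in
theorem lv0_0 : allBits (fun k => bif Nat.blt k 1408 then chkOrbPos Cfsg.Agent.Lib.ToddCox.U62T.tab L 0 0 1408 1408 (fun q => orbR (Nat.add 0 q)) k else true) 11 0 = true := by decide +kernel
theorem fx0 : ∀ w ∈ L.drop 8, tabW Cfsg.Agent.Lib.ToddCox.U62T.tab w 0 = 0 := by decide +kernel
theorem lv1_0 : allBits (fun k => bif Nat.blt k 840 then chkOrbPos Cfsg.Agent.Lib.ToddCox.U62T.tab L 8 568 840 1408 (fun q => orbR (Nat.add 1408 q)) k else true) 11 0 = true := by decide +kernel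
theorem fx1 : ∀ w ∈ L.drop 15, tabW Cfsg.Agent.Lib.ToddCox.U62T.tab w 568 = 568 := by decide +kernel
theorem lv2_0 : allBits (fun k => bif Nat.blt k 486 then chkOrbPos Cfsg.Agent.Lib.ToddCox.U62T.tab L 15 578 486 1408 (fun q => orbR (Nat.add 2248 q)) k else true) 11 0 = true := by decide +kernel
theorem fx2 : ∀ w ∈ L.drop 23, tabW Cfsg.Agent.Lib.ToddCox.U62T.tab w 578 = 578 := by decide +kernel
theorem lv3_0 : allBits (fun k => bif Nat.blt k 16 then chkOrbPos Cfsg.Agent.Lib.ToddCox.U62T.tab L 23 6 16 1408 (fun q => orbR (Nat.add 2734 q)) k else true) 11 0 = true := by decide +kernel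
theorem fx3 : ∀ w ∈ L.drop 27, tabW Cfsg.Agent.Lib.ToddCox.U62T.tab w 6 = 6 := by decide +kernel
end Cfsg.Agent.Lib.ToddCox.U62O
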